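import Mathlib
import Cfsg.Agent.Lib.Helper81.CS3.Defs

/-!
# CS3 (S4284), part GOOD ("a good element exists"): package interface.

`C(x) = Cn x`, `i(x) = ix x`.  The assembly `pkgGood_of` is in `GoodAsm.lean`.
-/

set_option autoImplicit false

namespace Cfsg.Agent.Lib.Helper41.CS3

universe u

/-- centralizer of an element. -/
abbrev Cn {G : Type u} [Group G] (x : G) : Subgroup G := Subgroup.centralizer ({x} : Set G)

/-- class size `i(x) = |G : C(x)|`. -/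
noncomputable abbrev ix {G : Type u} [Group G] (x : G) : ℕ :=
  (Subgroup.centralizer ({x} : Set G)).index

/-- `x` is an `r`-element. -/
def Prim {G : Type u} [Group G] (r : ℕ) (x : G) : Prop := ∃ k : ℕ, orderOf x = r ^ k

/-- `A` and `B` commute elementwise. -/
def Comm {G : Type u} [Group G] (A B : Subgroup G) : Prop := ∀ x ∈ A, ∀ y ∈ B, x * y = y * x

/-- `A` is abelian. -/
def Ab {G : Type u} [Group G] (A : Subgroup G) : Prop := ∀ x ∈ A, ∀ y ∈ A, x * y = y * x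

/-- `S` normalizes `H`. -/
def Nrm {G : Type u} [Group G] (S H : Subgroup G) : Prop := ∀ σ ∈ S, ∀ h ∈ H, σ * h * σ⁻¹ ∈ H

/-- `a` is a good element for the prime `s`. -/
structure Good {G : Type u} [Group G] (m s : ℕ) (a : G) : Prop where
  sp : s.Prime
  sm : s ∣ m
  prim : Prim s a
  ixa : ix a = m

/-- G1: `C(a) = Sa × N`, `Sa` an `s`-group, `N` an `s'`-group with class sizes `1, n`. -/
structure Dec {G : Type u} [Group G] (n s : ℕ) (a : G) (Sa N : Subgroup G) : Prop where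
  comm : Comm Sa N
  sup : Sa ⊔ N = Cn a
  pS : IsPGroup s Sa
  cop : (Nat.card N).Coprime s
  cls : ∀ y ∈ N, Nat.card N = Nat.card (Cn y ⊓ N : Subgroup G) ∨
    Nat.card N = n * Nat.card (Cn y ⊓ N : Subgroup G)

/-- the configuration after Ito when `N` is not abelian: `C(a) = Sa × T × B`. -/
structure Bad {G : Type u} [Group G] (n s t : ℕ) (a : G) (Sa T B : Subgroup G) : Prop where
  tp : t.Prime
  tn : ∃ k : ℕ, n = t ^ k
  sa_t : Comm Sa T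
  sa_b : Comm Sa B
  t_b : Comm T B
  b_ab : Ab B
  sup : Sa ⊔ T ⊔ B = Cn a
  pS : IsPGroup s Sa
  pT : IsPGroup t T
  copB : (Nat.card B).Coprime t
  copBs : (Nat.card B).Coprime s
  sylT : ¬ t ∣ T.index
  nab : ¬ Ab T
  cls : ∀ y ∈ T, (∃ z ∈ T, y * z ≠ z * y) → Nat.card T = n * Nat.card (Cn y ⊓ T : Subgroup G)

/-- the configuration after Step 2: `C(a) = A × T`, `A` abelian `t'`, `T` a non-abelian Sylow
`t`-subgroup of `G`, `C_G(T) ≤ C(a)`. -/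
structure Conf {G : Type u} [Group G] (n t : ℕ) (a : G) (A T : Subgroup G) : Prop where
  tp : t.Prime
  tn : ∃ k : ℕ, n = t ^ k
  a_ab : Ab A
  a_t : Comm A T
  sup : A ⊔ T = Cn a
  copA : (Nat.card A).Coprime t
  pT : IsPGroup t T
  sylT : ¬ t ∣ T.index
  nab : ¬ Ab T
  cls : ∀ y ∈ T, (∃ z ∈ T, y * z ≠ z * y) → Nat.card T = n * Nat.card (Cn y ⊓ T : Subgroup G)
  cent : Subgroup.centralizer (T : Set G) ≤ Cn a

/-- `y ∈ S` is an `s`-element, not central in `S`, with `[S, y] ≤ Z(S)` and `y ^ s ∈ Z(S)`. -/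
structure Z2 {G : Type u} [Group G] (s : ℕ) (S : Subgroup G) (y : G) : Prop where
  mem : y ∈ S
  prim : Prim s y
  nc : ∃ σ ∈ S, y * σ ≠ σ * y
  comm : ∀ σ ∈ S, ∀ τ ∈ S, (σ * y * σ⁻¹ * y⁻¹) * τ = τ * (σ * y * σ⁻¹ * y⁻¹)
  pow : ∀ τ ∈ S, y ^ s * τ = τ * y ^ s

/-! ## pure group theory -/

/-- [SYLOW] a `p`-subgroup is conjugate into any subgroup of index prime to `p`. -/
def PkgSylow : Prop := ∀ {G : Type u} [Group G] [Finite G] (p : ℕ), p.Prime →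
  ∀ K H : Subgroup G, IsPGroup p K → ¬ p ∣ H.index → ∃ g : G, ∀ x ∈ K, g * x * g⁻¹ ∈ H

/-- [COVER] a finite group is not the union of the conjugates of a proper subgroup. -/
def PkgCover : Prop := ∀ {G : Type u} [Group G] [Finite G] (H : Subgroup G), H ≠ ⊤ →
  ∃ x : G, ∀ g : G, g⁻¹ * x * g ∉ H

/-- [SPLIT] `g = g1 * g2`, `g1` a `p`-element, `g2` a `p'`-element, both powers of `g`. -/
def PkgSplit : Prop := ∀ {G : Type u} [Group G] [Finite G] (p : ℕ), p.Prime → ∀ g : G,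
  ∃ g1 g2 : G, g = g1 * g2 ∧ Prim p g1 ∧ (orderOf g2).Coprime p ∧
    (∃ k : ℕ, g1 = g ^ k) ∧ ∃ k : ℕ, g2 = g ^ k

/-- [PRIM] either some power of `x` is a non-central `r`-element, `r ≠ t`, or `x` is a
`t`-element times a central element. -/
def PkgPrim : Prop := ∀ {G : Type u} [Group G] [Finite G] (t : ℕ), t.Prime → ∀ x : G,
  (∃ (r : ℕ) (u : G), r.Prime ∧ r ≠ t ∧ Prim r u ∧ u ∉ Subgroup.center G ∧ ∃ k : ℕ, u = x ^ k) ∨
  (∃ xt z : G, x = xt * z ∧ Prim t xt ∧ z ∈ Subgroup.center G)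

/-- [EXY] a non-abelian `s`-group `S` has `y ∈ Z_2(S) \ Z(S)` with `y ^ s ∈ Z(S)`. -/
def PkgExy : Prop := ∀ {G : Type u} [Group G] [Finite G] (s : ℕ), s.Prime →
  ∀ S : Subgroup G, IsPGroup s S → ¬ Ab S → ∃ y : G, Z2 s S y

/-- [MSA] for `y` as in `Z2`: `S / C_S(y)` is elementary abelian. -/
def PkgMsa : Prop := ∀ {G : Type u} [Group G] [Finite G] (s : ℕ), s.Prime →
  ∀ (S : Subgroup G) (y : G), Z2 s S y →
    (∀ σ ∈ S, σ ^ s ∈ Cn y) ∧ (∀ σ ∈ S, ∀ τ ∈ S, σ * τ * σ⁻¹ * τ⁻¹ ∈ Cn y)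

/-- [MS] the fixed-point-free argument: `|S : C_S(y)| ≤ s`. -/
def PkgMs : Prop := ∀ {G : Type u} [Group G] [Finite G] (s s2 : ℕ), s.Prime → s2.Prime → s2 ≠ s →
  ∀ (S : Subgroup G) (y : G), Ab (Cn y) → Nrm S (Cn y) → (∀ σ ∈ S, σ ^ s ∈ Cn y) →
    (∀ σ ∈ S, ∀ τ ∈ S, σ * τ * σ⁻¹ * τ⁻¹ ∈ Cn y) →
    (∀ v ∈ Cn y, v ∉ Subgroup.center G → Cn v = Cn y) →
    (∃ u ∈ Cn y, Prim s2 u ∧ u ∉ Subgroup.center G) → s ^ 2 ∣ (Cn y).relIndex S → False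

/-- [CONJ] if `S` normalizes `C(g a g⁻¹)` then a conjugate of `S` normalizes `C(a)`. -/
def PkgConj : Prop := ∀ {G : Type u} [Group G] [Finite G] (s : ℕ) (S : Sylow s G) (a g : G),
  Nrm (S : Subgroup G) (Cn (g * a * g⁻¹)) → ∃ S' : Sylow s G, Nrm (S' : Subgroup G) (Cn a)

/-- [AT] in `C(a) = A × T`, an `r`-element (`r ≠ t`) of `C(a)` is central in `C(a)`. -/
def PkgAt : Prop := ∀ {G : Type u} [Group G] [Finite G] (n t : ℕ) (a : G) (A T : Subgroup G),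
  Conf n t a A T → ∀ (r : ℕ) (u : G), r.Prime → r ≠ t → Prim r u → u ∈ Cn a → Cn a ≤ Cn u

/-- [MSB] counting: `m_s` divides `|S : C_S(y)|` when `i(y) = m n`. -/
def PkgMsb : Prop := ∀ {G : Type u} [Group G] [Finite G] (m n s : ℕ), s.Prime →
  ∀ (S : Sylow s G) (y : G), ix y = m * n → s ^ 2 ∣ m → s ^ 2 ∣ (Cn y).relIndex (S : Subgroup G)

/-! ## under `Hyp G m n` -/

open Cfsg.Agent.Lib.Helper81.CS3

/-- [NC] every centralizer contains a non-central `s`-element (`s` prime, `s ∣ m`). -/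
def PkgNC : Prop := ∀ {G : Type u} [Group G] [Finite G] (m n : ℕ), Hyp G m n →
  ∀ (s : ℕ), s.Prime → s ∣ m → ∀ x : G, ∃ b ∈ Cn x, Prim s b ∧ b ∉ Subgroup.center G

/-- [G1] `C(a) = Sa × N`. -/
def PkgG1 : Prop := ∀ {G : Type u} [Group G] [Finite G] (m n : ℕ), Hyp G m n →
  ∀ (s : ℕ) (a : G), Good m s a → ∃ Sa N : Subgroup G, Dec n s a Sa N

/-- [ITO] if `N` is not abelian: Ito's theorem on `N`. -/
def PkgIto : Prop := ∀ {G : Type u} [Group G] [Finite G] (m n : ℕ), Hyp G m n →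
  ∀ (s : ℕ) (a : G) (Sa N : Subgroup G), Good m s a → Dec n s a Sa N → ¬ Ab N →
    ∃ (t : ℕ) (T B : Subgroup G), Bad n s t a Sa T B

/-- [S1] Step 1. -/
def PkgS1 : Prop := ∀ {G : Type u} [Group G] [Finite G] (m n : ℕ), Hyp G m n →
  ∀ (s t : ℕ) (a : G) (Sa T B : Subgroup G), Good m s a → Bad n s t a Sa T B →
    ∃ y1 ∈ T, ix y1 = m * n ∨ ((∀ z ∈ T, y1 * z = z * y1) ∧ y1 ∉ Subgroup.center G)

/-- [S2] Step 2. -/
def PkgS2 : Prop := ∀ {G : Type u} [Group G] [Finite G] (m n : ℕ), Hyp G m n →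
  ∀ (s t : ℕ) (a : G) (Sa T B : Subgroup G), Good m s a → Bad n s t a Sa T B →
    ∀ y1 ∈ T, (ix y1 = m * n ∨ ((∀ z ∈ T, y1 * z = z * y1) ∧ y1 ∉ Subgroup.center G)) →
    ∃ A : Subgroup G, Conf n t a A T

/-- [S3] Step 3. -/
def PkgS3 : Prop := ∀ {G : Type u} [Group G] [Finite G] (m n : ℕ), Hyp G m n →
  ∀ (t : ℕ) (a : G) (A T : Subgroup G), ix a = m → Conf n t a A T →
    ∀ v : G, ix v = m → ∃ g : G, Cn v = Cn (g * a * g⁻¹)

/-- [S4B] the Sylow part of Step 4. -/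
def PkgS4b : Prop := ∀ {G : Type u} [Group G] [Finite G] (m n : ℕ), Hyp G m n →
  ∀ (t : ℕ) (a : G) (A T : Subgroup G), Conf n t a A T →
    ∀ u : G, ix u = m * n → ∃ g : G, ∃ v ∈ T, (∃ z ∈ T, v * z ≠ z * v) ∧ v ∈ Cn (g * u * g⁻¹)

/-- [S4] Step 4. -/
def PkgS4 : Prop := ∀ {G : Type u} [Group G] [Finite G] (m n : ℕ), Hyp G m n →
  ∀ (s t : ℕ) (a : G) (A T : Subgroup G), Good m s a → Conf n t a A T →
    (∀ v : G, ix v = m → ∃ g : G, Cn v = Cn (g * a * g⁻¹)) →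
    ∀ (r : ℕ) (u : G), r.Prime → r ∣ m → Prim r u → ix u ≠ m * n

/-- [S5] Step 5. -/
def PkgS5 : Prop := ∀ {G : Type u} [Group G] [Finite G] (m n : ℕ), Hyp G m n →
  ∀ (s t : ℕ) (a : G) (A T : Subgroup G), Good m s a → Conf n t a A T →
    (∀ (r : ℕ) (u : G), r.Prime → r ∣ m → Prim r u → ix u ≠ m * n) →
    ∀ x : G, ∃ g : G, g⁻¹ * x * g ∈ Cn a

/-- [G3] `C(a)` is abelian. -/
def PkgG3 : Prop := ∀ {G : Type u} [Group G] [Finite G] (m n : ℕ), Hyp G m n →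
  ∀ (s : ℕ) (a : G) (Sa N : Subgroup G), Good m s a → Dec n s a Sa N → Ab N → Ab (Cn a)

/-- [G4C] -/
def PkgG4c : Prop := ∀ {G : Type u} [Group G] [Finite G] (m n : ℕ), Hyp G m n →
  ∀ a : G, ix a = m → Ab (Cn a) → ∀ x : G, ix x = m → ∃ g : G, Cn x = Cn (g * a * g⁻¹)

/-- [G4D] -/
def PkgG4d : Prop := ∀ {G : Type u} [Group G] [Finite G] (m n : ℕ), Hyp G m n →
  ∀ a : G, ix a = m → Ab (Cn a) →
    ∀ (r : ℕ) (v : G), r.Prime → ¬ r ∣ m → Prim r v → ix v ≠ m * n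

/-- [G5] `m` a prime power. -/
def PkgG5 : Prop := ∀ {G : Type u} [Group G] [Finite G] (m n : ℕ), Hyp G m n →
  ∀ (s : ℕ) (a : G), Good m s a → (∃ j : ℕ, m = s ^ j) →
    (∀ (r : ℕ) (v : G), r.Prime → ¬ r ∣ m → Prim r v → ix v ≠ m * n) → HasQ G m n

/-- [G6FIN] -/
def PkgG6fin : Prop := ∀ {G : Type u} [Group G] [Finite G] (m n : ℕ), Hyp G m n →
  ∀ a : G, ix a = m → Ab (Cn a) →
    (∀ s : ℕ, s.Prime → s ∣ m → ∃ S : Sylow s G, Nrm (S : Subgroup G) (Cn a)) → HasQ G m n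

/-- [HY] -/
def PkgHy : Prop := ∀ {G : Type u} [Group G] [Finite G] (m n : ℕ), Hyp G m n →
  ∀ (s s2 : ℕ) (a y : G), s.Prime → s ∣ m → s2.Prime → s2 ∣ m → s2 ≠ s → ix a = m →
    Ab (Cn a) → Prim s y → ix y = m * n →
    Ab (Cn y) ∧ ∀ v ∈ Cn y, v ∉ Subgroup.center G → Cn v = Cn y

/-- [NRM] -/
def PkgNrm : Prop := ∀ {G : Type u} [Group G] [Finite G] (m n : ℕ), Hyp G m n →
  ∀ (s : ℕ), s.Prime → s ∣ m → ∀ (S : Sylow s G) (y : G), Z2 s (S : Subgroup G) y →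
    Nrm (S : Subgroup G) (Cn y)

/-- [G6C] -/
def PkgG6c : Prop := ∀ {G : Type u} [Group G] [Finite G] (m n : ℕ), Hyp G m n →
  ∀ (s : ℕ) (a : G), s.Prime → s ∣ m → ix a = m → Ab (Cn a) → ¬ s ^ 2 ∣ m →
    ∃ S : Sylow s G, Nrm (S : Subgroup G) (Cn a)

end Cfsg.Agent.Lib.Helper41.CS3
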